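import Cfsg.Agent.CosetEnum.He.Sp4.Matrices
import Cfsg.Agent.CosetEnum.He.Simple
import Cfsg.Agent.CosetEnum.He.Index

/-!
The point stabilizer in the Held group has a subgroup of index 2 isomorphic to the symplectic
group in dimension 4 over four elements.
-/

set_option autoImplicit false

namespace CfsgLib.CosetEnum.He.Sp4

open CfsgLib.CosetEnum.Suz.G2

/-- the words generating `N` -/
def nWords : List (List ℕ) := (List.range 6).map nW

/-- `N` as a permutation group -/
noncomputable def Np : Subgroup (Equiv.Perm (Fin Tab.perm.n)) := He.cl nWords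

theorem nWords_sub : nWords.all (fun w => printedWords.contains w) = true := by decide +kernel

theorem Np_le : Np ≤ He.cl Tab.wordsH := by
  rw [← stab_zero, Np, He.cl]
  refine le_trans (Subgroup.closure_mono ?_) printed_le
  rintro _ ⟨w, hw, rfl⟩
  exact ⟨w, List.contains_iff_mem.1 (List.all_eq_true.1 nWords_sub w hw), rfl⟩

/-- the graph of the action on the blocks -/
noncomputable def Gamma1 :
    Subgroup (Equiv.Perm (Fin Tab.perm.n) × Equiv.Perm (Fin perm.n)) :=
  Subgroup.closure {p | ∃ x : Fin 6, p = (gword perm_ok.sigma (nW x), ok.sigma x)}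

theorem induces_of_mem {p : Equiv.Perm (Fin Tab.perm.n) × Equiv.Perm (Fin perm.n)}
    (hp : p ∈ Gamma1) : Induces p.1 p.2 := by
  induction hp using Subgroup.closure_induction with
  | mem p hp =>
    obtain ⟨x, rfl⟩ := hp
    exact induces_letter (lt_trans x.2 (by norm_num))
  | one => exact Induces.one
  | mul p q _ _ hp hq => exact hp.mul hq
  | inv p _ hp => exact hp.inv

/-- the projection to the points -/
noncomputable def toPoints : Gamma1 →* Equiv.Perm (Fin Tab.perm.n) :=
  (MonoidHom.fst _ _).comp Gamma1.subtype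

/-- the projection to the blocks -/
noncomputable def toBlocks : Gamma1 →* Equiv.Perm (Fin perm.n) :=
  (MonoidHom.snd _ _).comp Gamma1.subtype

theorem toPoints_injective : Function.Injective toPoints := by
  rw [← MonoidHom.ker_eq_bot_iff, eq_bot_iff]
  rintro ⟨⟨σ, τ⟩, hp⟩ h
  have h1 : σ = 1 := MonoidHom.mem_ker.1 h
  subst h1
  exact Subgroup.mem_bot.2 (Subtype.ext (Prod.ext rfl ((induces_of_mem hp).unique Induces.one)))

theorem toPoints_range : toPoints.range = Np := by
  rw [toPoints, MonoidHom.range_comp, Subgroup.range_subtype, Gamma1, MonoidHom.map_closure, Np,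
    He.cl]
  refine congrArg Subgroup.closure (Set.ext fun a => ?_)
  simp only [nWords, List.mem_map, List.mem_range, Set.mem_image, Set.mem_ofPred_eq]
  constructor
  · rintro ⟨_, ⟨x, rfl⟩, rfl⟩
    exact ⟨nW x, ⟨x, x.2, rfl⟩, rfl⟩
  · rintro ⟨_, ⟨x, hx, rfl⟩, rfl⟩
    exact ⟨_, ⟨⟨x, hx⟩, rfl⟩, rfl⟩

theorem toBlocks_range : toBlocks.range = R := by
  rw [toBlocks, MonoidHom.range_comp, Subgroup.range_subtype, Gamma1, MonoidHom.map_closure, R]
  refine le_antisymm ((Subgroup.closure_le _).2 ?_) ((Subgroup.closure_le _).2 ?_)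
  · rintro _ ⟨_, ⟨x, rfl⟩, rfl⟩
    exact Subgroup.subset_closure ⟨x, lt_trans x.2 (by norm_num), rfl⟩
  · have hmem : ∀ y : Fin 6, ok.sigma y ∈ Subgroup.closure
        ((MonoidHom.snd (Equiv.Perm (Fin Tab.perm.n)) (Equiv.Perm (Fin perm.n))) ''
          {p | ∃ x : Fin 6, p = (gword perm_ok.sigma (nW x), ok.sigma x)}) :=
      fun y => Subgroup.subset_closure ⟨_, ⟨y, rfl⟩, rfl⟩
    rintro _ ⟨x, hx, rfl⟩
    rcases Nat.lt_succ_iff_lt_or_eq.1 (show x < 7 from hx) with h | rfl
    · exact hmem ⟨x, h⟩
    · show ok.sigma (perm.iv 5) ∈ _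
      rw [ok.sigma_iv (x := 5) (by norm_num)]
      exact inv_mem (hmem ⟨5, by omega⟩)

theorem card_clH : Nat.card (He.cl Tab.wordsH) = 1958400 := by
  rw [cl_H, ← Nat.card_congr (Subgroup.equivMapOfInjective _ _ pi_injective).toEquiv, card_Hs]

theorem card_Np_and_iso :
    Nat.card Np = 979200 ∧ Nonempty (Np ≃* Matrix.symplecticGroup (Fin 2) F4) := by
  obtain ⟨hR, ⟨φ⟩⟩ := card_R_and_iso
  have hG : Nat.card Gamma1 = Nat.card Np := by
    rw [← toPoints_range]
    exact Nat.card_congr (MonoidHom.ofInjective toPoints_injective).toEquiv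
  have hfinH : Finite (He.cl Tab.wordsH) :=
    Nat.finite_of_card_ne_zero (by rw [card_clH]; norm_num)
  have hfinN : Finite Np := Finite.of_injective _ (Subgroup.inclusion_injective Np_le)
  have : Finite Gamma1 := Nat.finite_of_card_ne_zero (by rw [hG]; exact Nat.card_pos.ne')
  have hsurj : Function.Surjective toBlocks.rangeRestrict := toBlocks.rangeRestrict_surjective
  have hge : 979200 ≤ Nat.card Np := by
    rw [← hG, ← hR, ← toBlocks_range]
    exact Nat.card_le_card_of_surjective _ hsurj
  have hne : Np ≠ He.cl Tab.wordsH := by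
    intro heq
    have ht : gword perm_ok.sigma [0, 1, 0, 1] ∈ toPoints.range := by
      rw [toPoints_range, heq]
      exact Subgroup.subset_closure ⟨_, by decide, rfl⟩
    obtain ⟨p, hp⟩ := ht
    have h1 : toBlocks p ∈ R := by rw [← toBlocks_range]; exact ⟨p, rfl⟩
    have h2 : Induces (toPoints p) (toBlocks p) := induces_of_mem p.2
    rw [hp] at h2
    exact not_induced h1 h2
  obtain ⟨k, hk⟩ := Subgroup.card_dvd_of_le Np_le
  rw [card_clH] at hk
  have hk2 : k ≤ 2 := by nlinarith
  have hcard : Nat.card Np = 979200 := by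
    interval_cases k
    · omega
    · exact absurd (Subgroup.eq_of_le_of_card_ge Np_le (by rw [card_clH]; omega)) hne
    · omega
  refine ⟨hcard, ⟨((MulEquiv.subgroupCongr toPoints_range.symm).trans
    (MonoidHom.ofInjective toPoints_injective).symm).trans
      (((MulEquiv.ofBijective toBlocks.rangeRestrict ?_).trans
        (MulEquiv.subgroupCongr toBlocks_range)).trans φ)⟩⟩
  exact (Nat.bijective_iff_surjective_and_card _).2 ⟨hsurj, by rw [hG, hcard, toBlocks_range, hR]⟩

/-- `N` as a subgroup of the presented group -/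
noncomputable def N0 : Subgroup Cfsg.Spor.He :=
  Subgroup.closure {a | ∃ w ∈ nWords, gword g7 w = a}

theorem nWords_small : smallWords nWords = true := by decide +kernel

theorem map_N0 : N0.map pi = Np := map_closure_words nWords_small

theorem N0_le : N0 ≤ Hs := fun a ha => by
  rw [mem_Hs_iff]
  exact (mem_pointStab.1 (H_le (Np_le (map_N0 ▸ Subgroup.mem_map_of_mem pi ha)))).2 P0
    List.mem_cons_self

theorem N0_index : (N0.subgroupOf Hs).index = 2 ∧
    Nonempty (N0.subgroupOf Hs ≃* Matrix.symplecticGroup (Fin 2) F4) := by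
  obtain ⟨hc, ⟨φ⟩⟩ := card_Np_and_iso
  let e : N0.subgroupOf Hs ≃* Np :=
    ((Subgroup.subgroupOfEquivOfLe N0_le).trans (Subgroup.equivMapOfInjective N0 pi pi_injective)).trans
      (MulEquiv.subgroupCongr map_N0)
  refine ⟨?_, ⟨e.trans φ⟩⟩
  have h := (N0.subgroupOf Hs).card_mul_index
  rw [card_Hs, Nat.card_congr e.toEquiv, hc] at h
  omega

/-- The index 2 subgroup. -/
theorem exists_sp4 (H : Subgroup Cfsg.Spor.He) (hH : H = Hs) :
    ∃ (N : Subgroup H) (K : Type) (_ : Field K) (_ : Fintype K), N.Normal ∧ N.index = 2 ∧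
      Fintype.card K = 4 ∧ Nonempty (N ≃* Matrix.symplecticGroup (Fin 2) K) := by
  subst hH
  exact ⟨N0.subgroupOf Hs, F4, inferInstance, inferInstance,
    Subgroup.normal_of_index_eq_two N0_index.1, N0_index.1, F4.card_eq, N0_index.2⟩

/-- the permutation group of degree 2058 -/
noncomputable abbrev HeP : Subgroup (Equiv.Perm (Fin 2058)) := pi.range

theorem simple_HeP : IsSimpleGroup HeP := by
  have := He.simple
  exact (MonoidHom.ofInjective pi_injective).isSimpleGroup_congr.1 this

theorem transitive_HeP : MulAction.IsPretransitive HeP (Fin 2058) :=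
  (MulAction.isPretransitive_iff_orbit_eq_univ (G := pi.range) P0).2 orbit_top

theorem stab_HeP : ∃ (F : Type) (_ : Field F) (_ : Fintype F), Fintype.card F = 4 ∧
    ∃ N : Subgroup (MulAction.stabilizer HeP (0 : Fin 2058)),
      N.index = 2 ∧ Nonempty (N ≃* Matrix.symplecticGroup (Fin 2) F) := by
  obtain ⟨hc, ⟨φ⟩⟩ := card_Np_and_iso
  refine ⟨F4, inferInstance, inferInstance, F4.card_eq, ?_⟩
  set S := MulAction.stabilizer HeP (0 : Fin 2058)
  let ι : S →* Equiv.Perm (Fin 2058) := HeP.subtype.comp S.subtype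
  have hι : Function.Injective ι := Subtype.val_injective.comp Subtype.val_injective
  have hrange : ι.range = He.cl Tab.wordsH := by
    rw [← stab_zero]
    ext a
    constructor
    · rintro ⟨⟨⟨b, hb⟩, hs⟩, rfl⟩
      exact mem_pointStab.2 ⟨hb, fun p hp => by rw [List.mem_singleton.1 hp]; exact hs⟩
    · intro ha
      obtain ⟨hb, hs⟩ := mem_pointStab.1 ha
      exact ⟨⟨⟨a, hb⟩, hs P0 List.mem_cons_self⟩, rfl⟩
  have hle : Np ≤ ι.range := hrange ▸ Np_le
  let e : Subgroup.comap ι Np ≃* Np :=
    (Subgroup.equivMapOfInjective _ ι hι).trans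
      (MulEquiv.subgroupCongr (Subgroup.map_comap_eq_self hle))
  refine ⟨Subgroup.comap ι Np, ?_, ⟨e.trans φ⟩⟩
  have h := (Subgroup.comap ι Np).card_mul_index
  rw [Nat.card_congr e.toEquiv, hc, Nat.card_congr (MonoidHom.ofInjective hι).toEquiv, hrange] at h
  have h' : 979200 * (Subgroup.comap ι Np).index = 1958400 := h.trans card_clH
  omega

end CfsgLib.CosetEnum.He.Sp4
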