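import Cfsg.Agent.CosetEnum.He.Sp4.Blocks
import Cfsg.Agent.CosetEnum.Suz.G2.Field
import Cfsg.Agent.Classical.Symp.Card

/-!
The group on the 85 blocks is the symplectic group in dimension 4 over four elements: the blocks
carry projective points, permuted by six symplectic matrices.
-/

set_option autoImplicit false

namespace CfsgLib.CosetEnum.He.Sp4

open CfsgLib.CosetEnum.Suz.G2

/-- the coordinates -/
abbrev Ix : Type := Fin 2 ⊕ Fin 2

/-- number of a coordinate -/
def ixN : Ix → ℕ
  | .inl i => i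
  | .inr i => 2 + i

/-- decode a field element -/
def f4 : ℕ → F4
  | 1 => .one
  | 2 => .om
  | 3 => .om'
  | _ => .zero

/-- the projective point of a block -/
noncomputable def vec (j : Fin perm.n) : Ix → F4 := fun i => f4 (vecCode j >>> (2 * ixN i) % 4)

/-- the matrix of a letter -/
def mat (x : ℕ) : Matrix Ix Ix F4 :=
  Matrix.of fun i j => f4 (((matCode.getD x []).getD (ixN i) []).getD (ixN j) 0)

theorem mat_check : (List.finRange 6).all (fun x => ([.inl 0, .inl 1, .inr 0, .inr 1] : List Ix).all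
    fun i => decide (∀ j : Ix, (mat (x : ℕ) * Matrix.J (Fin 2) F4 * (mat (x : ℕ)).transpose) i j =
      Matrix.J (Fin 2) F4 i j)) = true := by
  decide +kernel

theorem mat_mem {x : ℕ} (hx : x < 6) : mat x ∈ Matrix.symplecticGroup (Fin 2) F4 := by
  refine SymplecticGroup.mem_iff.2 (Matrix.ext fun i j => ?_)
  refine of_decide_eq_true (List.all_eq_true.1
    (List.all_eq_true.1 mat_check ⟨x, hx⟩ (List.mem_finRange _)) i ?_) j
  fin_cases i <;> simp

/-- the symplectic element of a letter -/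
def spElt (x : Fin 6) : Matrix.symplecticGroup (Fin 2) F4 := ⟨mat x, mat_mem x.2⟩

theorem vec_sep : allBelow (fun j => allBelow (fun k => (j == k) ||
    [F4.one, F4.om, F4.om'].all fun c =>
      !(decide (∀ i : Ix, f4 (vecCode j >>> (2 * ixN i) % 4) =
        c * f4 (vecCode k >>> (2 * ixN i) % 4)))) 85) 85 = true := by
  decide +kernel

theorem image_check : (List.finRange 6).all (fun x => allBelow (fun j =>
    [F4.one, F4.om, F4.om'].any fun c => decide (∀ i : Ix,
      (Finset.univ.sum fun k : Ix => mat x i k * f4 (vecCode j >>> (2 * ixN k) % 4)) =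
        c * f4 (vecCode (T (7 * j + iv x)) >>> (2 * ixN i) % 4))) 85) = true := by
  decide +kernel

/-- a matrix moves the projective points as a permutation -/
def Moves (p : Equiv.Perm (Fin perm.n) × Matrix.symplecticGroup (Fin 2) F4) : Prop :=
  ∀ j, ∃ c : F4, c ≠ 0 ∧ Matrix.mulVec (p.2 : Matrix Ix Ix F4) (vec j) = c • vec (p.1 j)

theorem moves_letter (x : Fin 6) : Moves (ok.sigma x, spElt x) := by
  intro j
  have h := (Model.allBelow_iff _ _).1
    (List.all_eq_true.1 image_check x (List.mem_finRange _)) j j.2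
  obtain ⟨c, hc, hd⟩ := List.any_eq_true.1 h
  refine ⟨c, ?_, funext fun i => ?_⟩
  · intro h0
    rw [h0] at hc
    exact absurd hc (by decide)
  · have hd' := of_decide_eq_true hd i
    have hv : ((ok.sigma x j : Fin perm.n) : ℕ) = T (7 * (j : ℕ) + iv x) := by
      rw [PermData.OK.sigma, dif_pos (show (x : ℕ) < perm.L from lt_trans x.2 (by norm_num))]
      rfl
    show _ = c * f4 (vecCode (ok.sigma x j : Fin perm.n) >>> (2 * ixN i) % 4)
    rw [hv, ← hd']
    rfl

/-- the graph of the action of the matrices -/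
noncomputable def Gamma2 :
    Subgroup (Equiv.Perm (Fin perm.n) × Matrix.symplecticGroup (Fin 2) F4) :=
  Subgroup.closure {p | ∃ x : Fin 6, p = (ok.sigma x, spElt x)}

theorem moves_of_mem {p : Equiv.Perm (Fin perm.n) × Matrix.symplecticGroup (Fin 2) F4}
    (hp : p ∈ Gamma2) : Moves p := by
  induction hp using Subgroup.closure_induction with
  | mem p hp => obtain ⟨x, rfl⟩ := hp; exact moves_letter x
  | one => exact fun j => ⟨1, one_ne_zero, by simp⟩
  | mul p q _ _ hp hq =>
    intro j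
    obtain ⟨c, hc, hcj⟩ := hq j
    obtain ⟨d, hd, hdj⟩ := hp (q.1 j)
    refine ⟨c * d, mul_ne_zero hc hd, ?_⟩
    show Matrix.mulVec ((p.2 : Matrix Ix Ix F4) * (q.2 : Matrix Ix Ix F4)) (vec j) = _
    rw [← Matrix.mulVec_mulVec, hcj, Matrix.mulVec_smul, hdj, smul_smul]
    rfl
  | inv p _ hp =>
    intro j
    obtain ⟨c, hc, hcj⟩ := hp (p.1⁻¹ j)
    refine ⟨c⁻¹, inv_ne_zero hc, ?_⟩
    have he : p.1 (p.1⁻¹ j) = j := by simp
    rw [he] at hcj
    have hmul : ((p.2⁻¹ : Matrix.symplecticGroup (Fin 2) F4) : Matrix Ix Ix F4) *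
        (p.2 : Matrix Ix Ix F4) = 1 :=
      congrArg (fun g : Matrix.symplecticGroup (Fin 2) F4 => (g : Matrix Ix Ix F4))
        (inv_mul_cancel p.2)
    show Matrix.mulVec ((p.2⁻¹ : Matrix.symplecticGroup (Fin 2) F4) : Matrix Ix Ix F4) (vec j) =
      c⁻¹ • vec (p.1⁻¹ j)
    have := congrArg (Matrix.mulVec ((p.2⁻¹ : Matrix.symplecticGroup (Fin 2) F4) : Matrix Ix Ix F4))
      hcj
    rw [Matrix.mulVec_mulVec, hmul, Matrix.one_mulVec, Matrix.mulVec_smul] at this
    rw [this, inv_smul_smul₀ hc]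

theorem snd_injective :
    Function.Injective ((MonoidHom.snd _ _).comp Gamma2.subtype) := by
  rw [← MonoidHom.ker_eq_bot_iff, eq_bot_iff]
  rintro ⟨⟨τ, M⟩, hp⟩ hM
  have hM1 : M = 1 := MonoidHom.mem_ker.1 hM
  subst hM1
  refine Subgroup.mem_bot.2 (Subtype.ext (Prod.ext (Equiv.ext fun j => ?_) rfl))
  obtain ⟨c, hc, hcj⟩ := moves_of_mem hp j
  show τ j = j
  have hsep := (Model.allBelow_iff _ _).1 ((Model.allBelow_iff _ _).1 vec_sep j j.2) (τ j) (τ j).2
  simp only [Bool.or_eq_true, beq_iff_eq, List.all_eq_true, Bool.not_eq_true',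
    decide_eq_false_iff_not] at hsep
  rcases hsep with h | h
  · exact (Fin.ext h).symm
  · refine absurd (fun i => ?_) (h c ?_)
    · have := congrFun hcj i
      simp only [OneMemClass.coe_one, Matrix.one_mulVec, Pi.smul_apply, smul_eq_mul] at this
      exact this
    · cases c
      · exact absurd rfl hc
      all_goals decide

theorem sp_card : Nat.card (Matrix.symplecticGroup (Fin 2) F4) = 979200 := by
  rw [CfsgLib.Classical.Symp.card_symplecticGroup, F4.card_eq]
  simp [Finset.prod_range_succ]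

theorem finite_sp : Finite (Matrix.symplecticGroup (Fin 2) F4) :=
  Nat.finite_of_card_ne_zero (by rw [sp_card]; norm_num)

theorem fst_range : ((MonoidHom.fst _ _).comp Gamma2.subtype).range = R := by
  rw [MonoidHom.range_comp, Subgroup.range_subtype, Gamma2, MonoidHom.map_closure, R]
  refine le_antisymm ((Subgroup.closure_le _).2 ?_) ((Subgroup.closure_le _).2 ?_)
  · rintro _ ⟨_, ⟨x, rfl⟩, rfl⟩
    exact Subgroup.subset_closure ⟨x, lt_trans x.2 (by norm_num), rfl⟩
  · have hmem : ∀ y : Fin 6, ok.sigma y ∈ Subgroup.closure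
        ((MonoidHom.fst (Equiv.Perm (Fin perm.n)) (Matrix.symplecticGroup (Fin 2) F4)) ''
          {p | ∃ x : Fin 6, p = (ok.sigma x, spElt x)}) :=
      fun y => Subgroup.subset_closure ⟨_, ⟨y, rfl⟩, rfl⟩
    rintro _ ⟨x, hx, rfl⟩
    rcases Nat.lt_succ_iff_lt_or_eq.1 (show x < 7 from hx) with h | rfl
    · exact hmem ⟨x, h⟩
    · show ok.sigma (perm.iv 5) ∈ _
      rw [ok.sigma_iv (x := 5) (by norm_num)]
      exact inv_mem (hmem ⟨5, by omega⟩)

theorem card_R_and_iso :
    Nat.card R = 979200 ∧ Nonempty (R ≃* Matrix.symplecticGroup (Fin 2) F4) := by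
  have := finite_sp
  have : Finite Gamma2 := Finite.of_injective _ snd_injective
  let f : Gamma2 →* R := (((MonoidHom.fst _ _).comp Gamma2.subtype).codRestrict R fun p =>
    fst_range ▸ MonoidHom.mem_range.2 ⟨p, rfl⟩)
  have hf : Function.Surjective f := by
    rintro ⟨a, ha⟩
    obtain ⟨p, hp⟩ := MonoidHom.mem_range.1 (fst_range ▸ ha)
    exact ⟨p, Subtype.ext hp⟩
  have h1 : Nat.card Gamma2 ≤ 979200 := sp_card ▸ Nat.card_le_card_of_injective _ snd_injective
  have h2 := Nat.card_le_card_of_surjective f hf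
  have h3 := card_R_ge
  let g : Gamma2 →* Matrix.symplecticGroup (Fin 2) F4 := (MonoidHom.snd _ _).comp Gamma2.subtype
  have hg : Function.Injective g := snd_injective
  refine ⟨by omega, ⟨(MulEquiv.ofBijective f ?_).symm.trans (MulEquiv.ofBijective g ?_)⟩⟩
  · exact (Nat.bijective_iff_surjective_and_card _).2 ⟨hf, by omega⟩
  · exact (Nat.bijective_iff_injective_and_card _).2 ⟨hg, by rw [sp_card]; omega⟩

end CfsgLib.CosetEnum.He.Sp4
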